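import Mathlib
import Cfsg.Agent.H942.E8Val

/-!
# S5919, row `Ω₈⁺(2)`, task O8-NUM5: elements of order dividing 10 of `E₈(3)` (helper637)
-/

set_option autoImplicit false
set_option linter.unusedSectionVars false
set_option maxRecDepth 100000

namespace Cfsg.Agent.H637.O8N

open Cfsg Cfsg.Lie
open Cfsg.Agent.H944.RootVals Cfsg.Agent.H944.Kac Cfsg.Agent.H944.Tab
open Cfsg.Agent.H942.E8Tab Cfsg.Agent.H942.ValsChar Cfsg.Agent.H942.E8Alc Cfsg.Agent.H942.E8Val

/-- elements with `g ^ 10 = 1` and the value 24 at `g ^ 5` -/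
theorem check10 : allAlc th8 10 (fun Y => bif invB 10 3 R8 Y then bif Nat.beq (cnt 10 5 0 Y) 64 then
    decide ((cnt 10 2 0 Y, cnt 10 1 0 Y) ∈ ([(22, 10), (30, 14), (120, 64)] : List (ℕ × ℕ))) else true else true) =
    true := by
  decide +kernel

end Cfsg.Agent.H637.O8N
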