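import Mathlib
import Cfsg.Agent.H637.O8N.Chk
import Cfsg.Agent.H451.L7.Dim

/-!
# S5919, row `Ω₈⁺(2)`, task O8-NUM5: sums of Brauer character values over cyclic groups (helper637)
-/

set_option autoImplicit false
set_option linter.unusedSectionVars false
set_option maxRecDepth 100000

namespace Cfsg.Agent.H637.O8N

open Cfsg Cfsg.Lie
open Cfsg.Agent.H944.RootVals Cfsg.Agent.H944.Kac Cfsg.Agent.H944.Tab
open Cfsg.Agent.H942.E8Tab Cfsg.Agent.H942.ValsChar Cfsg.Agent.H942.E8Alc Cfsg.Agent.H942.E8Val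
open Cfsg.Agent.H657 IsLocalRing Module

theorem sum_swap {A : Type*} (s : Multiset A) (m : ℕ) (f : ℕ → A → ℂ) :
    ∑ i ∈ Finset.range m, (s.map (f i)).sum = (s.map fun a => ∑ i ∈ Finset.range m, f i a).sum := by
  induction s using Multiset.induction_on with
  | empty => simp
  | cons a s ih => simp only [Multiset.map_cons, Multiset.sum_cons, Finset.sum_add_distrib, ih]

theorem sum_root {N d m : ℕ} [NeZero N] (hdm : d * m = N) {ξ : ℂ} (hξ : IsPrimitiveRoot ξ N) (a : ZMod N) :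
    ∑ i ∈ Finset.range m, ξ ^ ((((d * i : ℕ) : ZMod N) * a).val) =
      (m : ℂ) * (((if (d : ZMod N) * a = 0 then (1 : ℤ) else 0 : ℤ)) : ℂ) := by
  set b := (d : ZMod N) * a with hb
  have h1 : ∀ i, ξ ^ ((((d * i : ℕ) : ZMod N) * a).val) = (ξ ^ b.val) ^ i := by
    intro i
    have e : (((d * i : ℕ) : ZMod N) * a) = ((i * b.val : ℕ) : ZMod N) := by
      push_cast
      rw [ZMod.natCast_zmod_val, hb]
      ring
    rw [e, ZMod.val_natCast, ← pow_mul, mul_comm b.val i]
    exact (pow_eq_pow_mod _ hξ.pow_eq_one).symm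
  rw [Finset.sum_congr rfl fun i _ => h1 i]
  have h2 : (ξ ^ b.val) ^ m = 1 := by
    rw [← pow_mul, hξ.pow_eq_one_iff_dvd, ← ZMod.natCast_eq_zero_iff]
    push_cast
    rw [ZMod.natCast_zmod_val, hb]
    have e : (d : ZMod N) * a * (m : ZMod N) = ((d * m : ℕ) : ZMod N) * a := by
      push_cast
      ring
    rw [e, hdm, ZMod.natCast_self, zero_mul]
  by_cases h0 : b = 0
  · rw [if_pos h0, h0]
    simp
  · rw [if_neg h0, Int.cast_zero, mul_zero]
    have h3 : ξ ^ b.val ≠ 1 := by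
      intro h
      rw [hξ.pow_eq_one_iff_dvd, ← ZMod.natCast_eq_zero_iff, ZMod.natCast_zmod_val] at h
      exact h0 h
    have h4 := geom_sum_mul (ξ ^ b.val) m
    rw [h2, sub_self] at h4
    exact (mul_eq_zero.1 h4).resolve_right (sub_ne_zero.2 h3)

variable {V : ValuationSubring ℂ} [CharP (ResidueField V) 3] {G : Type*} [Group G]
  {F : G →* ↥(chevE8.group (ZMod 3))}

/-- the sum of the values over the group generated by `g ^ d` -/
theorem sum_pow {N d m : ℕ} [NeZero N] (hdm : d * m = N) {g : G} {Y : List ℕ} {ξ : ℂ} (h : Spec V F g N Y ξ) :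
    ∑ i ∈ Finset.range m, bc 3 (adj V F) (g ^ (d * i)) = (m : ℂ) * (8 + 2 * (cnt N d 0 Y : ℂ)) := by
  rw [Finset.sum_congr rfl fun i _ => h.bc (d * i), Finset.sum_add_distrib, sum_swap, Finset.sum_const,
    Finset.card_range, nsmul_eq_mul, mul_add]
  congr 1
  rw [Multiset.map_congr rfl fun a _ => sum_root hdm h.prim a, Multiset.sum_map_mul_left]
  congr 1
  have h11 := map_multiset_sum (Int.castRingHom ℂ)
    ((ms chevE8 8 (vecL N Y)).map fun a => if (d : ZMod N) * a = 0 then (1 : ℤ) else 0)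
  rw [Multiset.map_map, sum_ind d Y] at h11
  refine Eq.trans ?_ (h11.symm.trans ?_)
  · rfl
  · simp only [eq_intCast, Int.cast_mul, Int.cast_ofNat, Int.cast_natCast]

theorem bc_one (V : ValuationSubring ℂ) [CharP (ResidueField V) 3] (F : G →* ↥(chevE8.group (ZMod 3))) :
    bc 3 (adj V F) 1 = 248 := by
  obtain ⟨Y, ξ, h⟩ := exists_spec (V := V) F (N := 5) (by norm_num) (by norm_num) (one_pow (M := G) 5)
  have h1 := h.bc 0
  rw [pow_zero] at h1
  rw [h1]
  have h2 : ∀ a ∈ ms chevE8 8 (vecL 5 Y), ξ ^ ((((0 : ℕ) : ZMod 5) * a).val) = 1 := by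
    intro a _
    simp
  rw [Multiset.map_congr rfl h2, Multiset.map_const', card_ms, Multiset.sum_replicate]
  norm_num

/-- **Elements of order 10** with the value 24 at the involution -/
theorem ten (V : ValuationSubring ℂ) [CharP (ResidueField V) 3] (F : G →* ↥(chevE8.group (ZMod 3))) {g : G}
    (hg : g ^ 10 = 1) (h5 : bc 3 (adj V F) (g ^ 5) = 24) (hne : F (g ^ 2) ≠ 1) :
    (bc 3 (adj V F) (g ^ 2) = 3 ∨ bc 3 (adj V F) (g ^ 2) = 23) ∧
      ∃ n : ℕ, n ≤ 36 ∧ ∑ i ∈ Finset.range 10, bc 3 (adj V F) (g ^ i) = 10 * (n : ℂ) := by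
  obtain ⟨Y, ξ, h⟩ := exists_spec (V := V) F (N := 10) (by norm_num) (by norm_num) hg
  have h1 := allAlc_spec th8 10 _ (by decide) check10 Y h.len h.alc
  have h2 : invB 10 3 R8 Y = true := invB_of (by norm_num) tab8 len8 h.frob
  rw [h2, cond_true] at h1
  have s5 := sum_pow (d := 5) (m := 2) (by norm_num) h
  have s2 := sum_pow (d := 2) (m := 5) (by norm_num) h
  have s1 := sum_pow (d := 1) (m := 10) (by norm_num) h
  rw [Finset.sum_range_succ, Finset.sum_range_one, mul_zero, pow_zero, mul_one, bc_one, h5] at s5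
  have h3 : cnt 10 5 0 Y = 64 := by
    have h4 : (cnt 10 5 0 Y : ℂ) = ((64 : ℕ) : ℂ) := by
      push_cast at s5 ⊢
      linear_combination (-1 / 4 : ℂ) * s5
    exact_mod_cast h4
  rw [h3] at h1
  have h1' : (cnt 10 2 0 Y, cnt 10 1 0 Y) ∈ ([(22, 10), (30, 14), (120, 64)] : List (ℕ × ℕ)) := by
    simpa only [Nat.beq_refl, cond_true, decide_eq_true_eq] using h1
  have hg2 : (g ^ 2) ^ 5 = 1 := by rw [← pow_mul]; exact hg
  obtain ⟨t, ht, hd, ho⟩ := val5 V F hg2
  have hb : ∀ i, ¬ 5 ∣ i → bc 3 (adj V F) (g ^ (2 * i)) = t := fun i hi => by rw [pow_mul]; exact hd i hi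
  have s2' : 248 + 4 * (t : ℂ) = 5 * (8 + 2 * (cnt 10 2 0 Y : ℂ)) := by
    rw [Finset.sum_range_succ, Finset.sum_range_succ, Finset.sum_range_succ, Finset.sum_range_succ,
      Finset.sum_range_one, hb 1 (by norm_num), hb 2 (by norm_num), hb 3 (by norm_num), hb 4 (by norm_num),
      mul_zero, pow_zero, bc_one] at s2
    push_cast at s2
    linear_combination s2
  have s2'' : 248 + 4 * t = 5 * (8 + 2 * (cnt 10 2 0 Y : ℤ)) := by exact_mod_cast s2'
  have hbt : bc 3 (adj V F) (g ^ 2) = t := by simpa using hb 1 (by norm_num)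
  have s1' : ∑ i ∈ Finset.range 10, bc 3 (adj V F) (g ^ i) = 10 * (8 + 2 * (cnt 10 1 0 Y : ℂ)) := by
    simpa only [one_mul, Nat.cast_ofNat] using s1
  have ht248 : t ≠ 248 := fun h6 => hne (ho.2 h6)
  rw [hbt]
  simp only [List.mem_cons, List.not_mem_nil, or_false, Prod.mk.injEq] at h1'
  rcases h1' with ⟨h6, h7⟩ | ⟨h6, h7⟩ | ⟨h6, h7⟩
  · rw [h6] at s2''
    refine ⟨Or.inl ?_, 28, by norm_num, ?_⟩
    · have : t = 3 := by omega
      rw [this]; norm_num
    · rw [s1', h7]; norm_num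
  · rw [h6] at s2''
    refine ⟨Or.inr ?_, 36, by norm_num, ?_⟩
    · have : t = 23 := by omega
      rw [this]; norm_num
    · rw [s1', h7]; norm_num
  · rw [h6] at s2''
    exfalso
    apply ht248
    omega

end Cfsg.Agent.H637.O8N
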