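import Mathlib
import Cfsg.Agent.H637.O8N.Sum
import Cfsg.Agent.H540.E8C.O8.Iface
import Cfsg.Agent.H540.E8C.Main

/-!
# S5919, row `Ω₈⁺(2)`, task O8-NUM5 (helper637)
-/

set_option autoImplicit false
set_option linter.unusedSectionVars false
set_option maxRecDepth 100000

namespace Cfsg.Agent.H637.O8N

open Cfsg Cfsg.Lie
open Cfsg.Agent.H944.RootVals Cfsg.Agent.H944.Kac Cfsg.Agent.H944.Tab
open Cfsg.Agent.H942.E8Tab Cfsg.Agent.H942.ValsChar Cfsg.Agent.H942.E8Alc Cfsg.Agent.H942.E8Val
open Cfsg.Agent.H657 IsLocalRing Module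
open Cfsg.Agent.H540.E8C.O8 Cfsg.Agent.H540.E8C.End
open Cfsg.Agent.StdO8.Model (Om)
open Cfsg.Agent.StdO8.Code (gen word word_eq word_append word_single word_reverse word_nil)
open Cfsg.Agent.H942.L7 (fixL)

/-! ### cyclic groups -/

section

variable {Q : Type} [Group Q]

/-- the homomorphism from a cyclic group -/
noncomputable def cyc {N : ℕ} [NeZero N] (q : Q) (hq : q ^ N = 1) : Multiplicative (ZMod N) →* Q :=
  MonoidHom.mk' (fun a => q ^ (Multiplicative.toAdd a).val) (by
    intro a b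
    show q ^ (Multiplicative.toAdd (a * b)).val = _
    rw [toAdd_mul, ZMod.val_add, ← pow_add]
    exact (pow_eq_pow_mod _ hq).symm)

theorem cyc_apply {N : ℕ} [NeZero N] (q : Q) (hq : q ^ N = 1) (a : Multiplicative (ZMod N)) :
    cyc q hq a = q ^ (Multiplicative.toAdd a).val := rfl

theorem ac_pow {x : E} {v : LL} (h : ac x v = v) (n : ℕ) : ac (x ^ n) v = v := by
  induction n with
  | zero => rw [pow_zero, ac_one]
  | succ n ih => rw [pow_succ, ac_mul, h, ih]

theorem mem_fixL {F : Q →* E} {L : List Q} {v : LL} : v ∈ fixL F L ↔ ∀ g ∈ L, ac (F g) v = v := Iff.rfl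

theorem sum_list (N : ℕ) (f : ℕ → ℂ) : ((List.range N).map f).sum = ∑ i ∈ Finset.range N, f i := by
  rw [Finset.sum, Finset.range_val, Multiset.range, Multiset.map_coe, Multiset.sum_coe]

theorem bc_comp {Q' : Type} [Group Q'] (V : ValuationSubring ℂ) [CharP (ResidueField V) 3] (F : Q →* E) (φ : Q' →* Q)
    (g : Q') : bc 3 (adj V (F.comp φ)) g = bc 3 (adj V F) (φ g) := rfl

/-- the elements of the cyclic group -/
def lst (N : ℕ) : List (Multiplicative (ZMod N)) := (List.range N).map fun i => Multiplicative.ofAdd ((i : ℕ) : ZMod N)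

theorem mem_lst {N : ℕ} [NeZero N] (a : Multiplicative (ZMod N)) : a ∈ lst N := by
  unfold lst
  rw [List.mem_map]
  refine ⟨(Multiplicative.toAdd a).val, List.mem_range.2 (ZMod.val_lt _), ?_⟩
  rw [ZMod.natCast_zmod_val]
  rfl

theorem nodup_lst {N : ℕ} [NeZero N] : (lst N).Nodup := by
  refine List.Nodup.map_on ?_ List.nodup_range
  intro i hi j hj hij
  have h1 : ((i : ℕ) : ZMod N) = ((j : ℕ) : ZMod N) := hij
  rw [← ZMod.val_cast_of_lt (List.mem_range.1 hi), ← ZMod.val_cast_of_lt (List.mem_range.1 hj), h1]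

theorem length_lst {N : ℕ} : (lst N).length = N := by simp [lst]

theorem fixL_cyc {N : ℕ} [NeZero N] (F : Q →* E) (q : Q) (hq : q ^ N = 1) :
    fixL (F.comp (cyc q hq)) (lst N) = fixL F [q] := by
  ext v
  rw [mem_fixL, mem_fixL]
  constructor
  · intro hv g hg
    rw [List.mem_singleton] at hg
    subst hg
    have h1 := hv (Multiplicative.ofAdd 1) (mem_lst _)
    have h2 : (F.comp (cyc g hq)) (Multiplicative.ofAdd 1) = F g := by
      rw [MonoidHom.comp_apply, cyc_apply, toAdd_ofAdd, ZMod.val_one_eq_one_mod, ← pow_eq_pow_mod _ hq, pow_one]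
    rw [h2] at h1
    exact h1
  · intro hv g _
    have h1 := hv q (List.mem_singleton.2 rfl)
    have h2 : (F.comp (cyc q hq)) g = F q ^ (Multiplicative.toAdd g).val := by
      rw [MonoidHom.comp_apply, cyc_apply, map_pow]
    rw [h2]
    exact ac_pow h1 _

theorem sum_cyc {N : ℕ} [NeZero N] (V : ValuationSubring ℂ) [CharP (ResidueField V) 3] (F : Q →* E) (q : Q)
    (hq : q ^ N = 1) : ((lst N).map fun g => bc 3 (adj V (F.comp (cyc q hq))) g).sum =
      ∑ i ∈ Finset.range N, bc 3 (adj V F) (q ^ i) := by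
  rw [lst, List.map_map, ← sum_list]
  refine congrArg List.sum (List.map_congr_left fun i hi => ?_)
  rw [Function.comp_apply, bc_comp, cyc_apply, toAdd_ofAdd, ZMod.val_cast_of_lt (List.mem_range.1 hi)]

/-- the dimension of the fixed space of an element -/
theorem dim_cyc {M : Ideal AlgInt} {V : ValuationSubring ℂ} (hM : IsPModular 3 M) (hV : Above M V)
    [CharP (ResidueField V) 3] (F : Q →* E) {N : ℕ} [NeZero N] (hN : N.Coprime 3) (q : Q) (hq : q ^ N = 1) :
    ∑ i ∈ Finset.range N, bc 3 (adj V F) (q ^ i) = (N : ℂ) * (finrank (ZMod 3) ↥(fixL F [q]) : ℂ) := by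
  have h := Cfsg.Agent.H451.L7.dim M V hM hV _ (F.comp (cyc q hq)) (lst N) nodup_lst (mem_lst 1)
    (fun a _ b _ => mem_lst _) (by rw [length_lst]; exact hN)
  rw [sum_cyc, fixL_cyc, length_lst] at h
  exact h

/-! ### the group of order 25 -/

/-- the homomorphism from `C₅ × C₅` -/
noncomputable def hom2 (a b : Q) (ha : a ^ 5 = 1) (hb : b ^ 5 = 1) (hab : Commute a b) :
    Multiplicative (ZMod 5) × Multiplicative (ZMod 5) →* Q :=
  MonoidHom.noncommCoprod (cyc a ha) (cyc b hb) (fun _ _ => hab.pow_pow _ _)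

theorem hom2_apply (a b : Q) (ha : a ^ 5 = 1) (hb : b ^ 5 = 1) (hab : Commute a b)
    (p : Multiplicative (ZMod 5) × Multiplicative (ZMod 5)) :
    hom2 a b ha hb hab p = a ^ (Multiplicative.toAdd p.1).val * b ^ (Multiplicative.toAdd p.2).val := rfl

/-- an element of `C₅ × C₅` -/
def el (i j : ZMod 5) : Multiplicative (ZMod 5) × Multiplicative (ZMod 5) := (Multiplicative.ofAdd i, Multiplicative.ofAdd j)

theorem hom2_el (a b : Q) (ha : a ^ 5 = 1) (hb : b ^ 5 = 1) (hab : Commute a b) (i j : ZMod 5) :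
    hom2 a b ha hb hab (el i j) = a ^ i.val * b ^ j.val := rfl

theorem el_pow5 (i j : ZMod 5) : el i j ^ 5 = 1 := by
  revert i j
  decide +kernel

/-- the elements of `C₅ × C₅`, in the order of the six subgroups of order 5 -/
def L25 : List (Multiplicative (ZMod 5) × Multiplicative (ZMod 5)) :=
  1 :: [el 1 0, el 0 1, el 1 1, el 1 4, el 1 2, el 1 3].flatMap fun h => [h ^ 1, h ^ 2, h ^ 3, h ^ 4]

theorem nodup25 : L25.Nodup := by decide +kernel

theorem mul25 : ∀ a ∈ L25, ∀ b ∈ L25, a * b ∈ L25 := by decide +kernel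

theorem sum25 (f : Multiplicative (ZMod 5) × Multiplicative (ZMod 5) → ℂ) (t : ℕ → ℕ → ℂ)
    (h : ∀ i j : ℕ, ∀ d : ℕ, ¬ 5 ∣ d → f (el i j ^ d) = t i j) : (L25.map f).sum =
      f 1 + 4 * (t 1 0 + t 0 1 + t 1 1 + t 1 4 + t 1 2 + t 1 3) := by
  have h' : ∀ i j : ℕ, (([el i j ^ 1, el i j ^ 2, el i j ^ 3, el i j ^ 4] : List _).map f).sum = 4 * t i j := by
    intro i j
    rw [List.map_cons, List.map_cons, List.map_cons, List.map_cons, List.map_nil, List.sum_cons, List.sum_cons,
      List.sum_cons, List.sum_cons, List.sum_nil, h i j 1 (by norm_num), h i j 2 (by norm_num),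
      h i j 3 (by norm_num), h i j 4 (by norm_num)]
    ring
  have h10 := h' 1 0
  have h01 := h' 0 1
  have h11 := h' 1 1
  have h14 := h' 1 4
  have h12 := h' 1 2
  have h13 := h' 1 3
  simp only [Nat.cast_one, Nat.cast_zero, Nat.cast_ofNat] at h10 h01 h11 h14 h12 h13
  rw [L25, List.map_cons, List.sum_cons, List.flatMap_cons, List.flatMap_cons, List.flatMap_cons, List.flatMap_cons,
    List.flatMap_cons, List.flatMap_cons, List.flatMap_nil, List.map_append, List.map_append, List.map_append,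
    List.map_append, List.map_append, List.map_append, List.sum_append, List.sum_append, List.sum_append,
    List.sum_append, List.sum_append, List.sum_append, h10, h01, h11, h14, h12, h13, List.map_nil, List.sum_nil]
  ring

end

/-! ### words -/

theorem bc_conj_eq {Q : Type} [Group Q] (V : ValuationSubring ℂ) [CharP (ResidueField V) 3] (F : Q →* E) {a b h : Q}
    (hab : h * a = b * h) : bc 3 (adj V F) a = bc 3 (adj V F) b := by
  have h1 : a = h⁻¹ * b * h := by rw [mul_assoc, ← hab, inv_mul_cancel_left]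
  rw [h1]
  exact Cfsg.Agent.H942.Common.bc_conj' F b h

theorem word_pow5 (l : List (ℕ × ℕ)) : word l ^ 5 = word (l ++ (l ++ (l ++ (l ++ l)))) := by
  rw [word_append, word_append, word_append, word_append]
  simp only [pow_succ, pow_zero, one_mul, mul_assoc]

/-- the second element of order 5 -/
def yw' : List (ℕ × ℕ) := cw ++ [(16, 32), (32, 64), (64, 128)]

def g1 : List (ℕ × ℕ) := [(1, 8), (16, 128), (1, 8), (1, 64), (4, 32), (64, 128)]

def g2 : List (ℕ × ℕ) := [(1, 64), (4, 16), (1, 8), (4, 8), (32, 128), (2, 128), (4, 128), (8, 64), (4, 128)]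

theorem y5 : word yw ^ 5 = 1 := by
  rw [word_pow5, ← word_nil]
  exact word_eq (by decide +kernel)

theorem y5' : word yw' ^ 5 = 1 := by
  rw [word_pow5, ← word_nil]
  exact word_eq (by decide +kernel)

theorem c2 : word cw * word cw = 1 := by
  rw [← word_append, ← word_nil]
  exact word_eq (by decide +kernel)

theorem comm_yc : word yw * word cw = word cw * word yw := by
  rw [← word_append, ← word_append]
  exact word_eq (by decide +kernel)

theorem comm_yy' : word yw * word yw' = word yw' * word yw := by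
  rw [← word_append, ← word_append]
  exact word_eq (by decide +kernel)

theorem conj_c : word [(2, 64), (1, 128)] * word cw = (gen (1, 2) * gen (4, 8)) * word [(2, 64), (1, 128)] := by
  rw [← word_single, ← word_single, ← word_append, ← word_append, ← word_append]
  exact word_eq (by decide +kernel)

theorem conj_y' : word g1 * word yw = word yw' * word g1 := by
  rw [← word_append, ← word_append]
  exact word_eq (by decide +kernel)

theorem conj_tau : word g2 * word (sww yw) = (word yw * word yw') * word g2 := by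
  rw [← word_append, ← word_append, ← word_append]
  exact word_eq (by decide +kernel)

theorem conj_4 : word cw * (word yw * word yw' ^ 4) = (word yw * word yw') * word cw := by
  have h : word yw' ^ 4 = word (yw' ++ (yw' ++ (yw' ++ yw'))) := by
    rw [word_append, word_append, word_append]
    simp only [pow_succ, pow_zero, one_mul, mul_assoc]
  rw [h, ← word_append, ← word_append, ← word_append, ← word_append]
  exact word_eq (by decide +kernel)

theorem conj_3 : word cw * (word yw * word yw' ^ 3) = (word yw * word yw' ^ 2) * word cw := by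
  have h : word yw' ^ 3 = word (yw' ++ (yw' ++ yw')) := by
    rw [word_append, word_append]
    simp only [pow_succ, pow_zero, one_mul, mul_assoc]
  have h' : word yw' ^ 2 = word (yw' ++ yw') := by
    rw [word_append]
    simp only [pow_succ, pow_zero, one_mul]
  rw [h, h', ← word_append, ← word_append, ← word_append, ← word_append]
  exact word_eq (by decide +kernel)

theorem y_ne : word yw ≠ 1 := by
  intro h
  have h1 := Cfsg.Agent.StdO8.Code.word_dec (l := yw) (by decide +kernel) 2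
  rw [h] at h1
  have h2 : Cfsg.Agent.StdO8.Code.dec 2 = Cfsg.Agent.StdO8.Code.dec (Cfsg.Agent.StdO8.Code.ev yw 2) := h1
  have h3 := Cfsg.Agent.StdO8.Code.dec_inj (by norm_num) (by decide +kernel) h2
  revert h3
  decide +kernel

/-! ### the theorem -/

theorem sum_five {Q : Type} [Group Q] (V : ValuationSubring ℂ) [CharP (ResidueField V) 3] (F : Q →* E) {g : Q} {t : ℂ}
    (hd : ∀ d : ℕ, ¬ 5 ∣ d → bc 3 (adj V F) (g ^ d) = t) :
    ∑ i ∈ Finset.range 5, bc 3 (adj V F) (g ^ i) = 248 + 4 * t := by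
  rw [Finset.sum_range_succ, Finset.sum_range_succ, Finset.sum_range_succ, Finset.sum_range_succ,
    Finset.sum_range_one, hd 1 (by norm_num), hd 2 (by norm_num), hd 3 (by norm_num), hd 4 (by norm_num),
    pow_zero, bc_one]
  ring

/-- a fixed vector of `y` moved by `c` -/
theorem exists_moved {Q : Type} [Group Q] {M : Ideal AlgInt} {V : ValuationSubring ℂ} (hM : IsPModular 3 M)
    (hV : Above M V) [CharP (ResidueField V) 3] (F : Q →* E) {y c : Q} (y5 : y ^ 5 = 1) (e10 : (y * c) ^ 10 = 1)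
    (hsum5 : ∑ i ∈ Finset.range 5, bc 3 (adj V F) (y ^ i) = 340) {n : ℕ}
    (hsum : ∑ i ∈ Finset.range 10, bc 3 (adj V F) ((y * c) ^ i) = 10 * (n : ℂ)) (hn : n ≤ 36) :
    ∃ v : LL, ac (F y) v = v ∧ ac (F c) v ≠ v := by
  by_contra hcon
  push Not at hcon
  have hle : fixL F [y] ≤ fixL F [y * c] := by
    intro v hv
    rw [mem_fixL] at hv ⊢
    intro g hg
    rw [List.mem_singleton] at hg
    rw [hg]
    have h2 : ac (F y) v = v := hv y (List.mem_singleton.2 rfl)
    have h5 : ac (F c) v = v := hcon v h2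
    have h6 : ac (F (y * c)) v = ac (F y) (ac (F c) v) := by
      rw [map_mul]
      exact ac_mul _ _ _
    rw [h5, h2] at h6
    exact h6
  have h2 := Submodule.finrank_mono hle
  have h3 := dim_cyc hM hV F (N := 5) (by norm_num) y y5
  rw [hsum5] at h3
  have h4 := dim_cyc hM hV F (N := 10) (by norm_num) (y * c) e10
  rw [hsum] at h4
  have h3' : finrank (ZMod 3) ↥(fixL F [y]) = 68 := by
    have h5 : (finrank (ZMod 3) ↥(fixL F [y]) : ℂ) = ((68 : ℕ) : ℂ) := by
      push_cast at h3 ⊢
      linear_combination (-1 / 5 : ℂ) * h3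
    exact_mod_cast h5
  have h4' : finrank (ZMod 3) ↥(fixL F [y * c]) = n := by
    have h5 : (finrank (ZMod 3) ↥(fixL F [y * c]) : ℂ) = (n : ℂ) := by
      push_cast at h4
      linear_combination (-1 / 10 : ℂ) * h4
    exact_mod_cast h5
  omega

/-- the element of order 5 -/
theorem exists_partner {Q : Type} [Group Q] {V : ValuationSubring ℂ} [CharP (ResidueField V) 3] (F : Q →* E) {y : Q}
    (y5 : y ^ 5 = 1) (hsum5 : ∑ i ∈ Finset.range 5, bc 3 (adj V F) (y ^ i) = 340) :
    ∃ x' : E, x' ^ 2 = 1 ∧ x' ≠ 1 ∧ Commute (F y) x' ∧ ∀ v : LL, ac (F y) v = v → ac x' v = v := by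
  obtain ⟨Y, ξ, h, hT⟩ := Cfsg.Agent.H942.CB.exists_specT (V := V) F (N := 5) (by norm_num) (by norm_num) y5
  have s1 := sum_pow (d := 1) (m := 5) (by norm_num) h
  simp only [one_mul] at s1
  rw [hsum5] at s1
  have hc : cnt 5 1 0 Y = 30 := by
    have h4 : (cnt 5 1 0 Y : ℂ) = ((30 : ℕ) : ℂ) := by
      push_cast at s1 ⊢
      linear_combination (-1 / 10 : ℂ) * s1
    exact_mod_cast h4
  exact Cfsg.Agent.H540.E8C.five y5 hc h hT

theorem e10_yc : (word yw * word cw) ^ 10 = 1 := by
  have hcomm : Commute (word yw) (word cw) := comm_yc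
  have hc2 : word cw ^ 2 = 1 := by rw [pow_two]; exact c2
  rw [hcomm.mul_pow, show 10 = 5 * 2 from rfl, pow_mul, y5, one_pow, one_mul, mul_comm, pow_mul, hc2, one_pow]

/-- the element of order 10 -/
theorem ten_y {M : Ideal AlgInt} {V : ValuationSubring ℂ} (hM : IsPModular 3 M) (hV : Above M V)
    [CharP (ResidueField V) 3] (h1 : Num1) (F : Om →* E) (hF : Function.Injective F) :
    (bc 3 (adj V F) (word yw) = 3 ∨ bc 3 (adj V F) (word yw) = 23) ∧
      ∃ n : ℕ, n ≤ 36 ∧ ∑ i ∈ Finset.range 10, bc 3 (adj V F) ((word yw * word cw) ^ i) = 10 * (n : ℂ) := by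
  have hcomm : Commute (word yw) (word cw) := comm_yc
  have hc2 : word cw ^ 2 = 1 := by rw [pow_two]; exact c2
  have e2 : (word yw * word cw) ^ 2 = word yw ^ 2 := by rw [hcomm.mul_pow, hc2, mul_one]
  have e5 : (word yw * word cw) ^ 5 = word cw := by
    rw [hcomm.mul_pow, y5, one_mul, show 5 = 2 * 2 + 1 from rfl, pow_succ, pow_mul, hc2, one_pow, one_mul]
  have e10 : (word yw * word cw) ^ 10 = 1 := by
    rw [show 10 = 5 * 2 from rfl, pow_mul, e5, hc2]
  have hc : bc 3 (adj V F) (word cw) = 24 := by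
    rw [bc_conj_eq V F conj_c]
    exact ((h1 F hF).2 M V hM hV).2
  have hne : F ((word yw * word cw) ^ 2) ≠ 1 := by
    rw [e2]
    intro h
    have h2 : word yw ^ 2 = 1 := hF (by rw [h, map_one])
    apply y_ne
    have h3 := y5
    rw [show 5 = 2 * 2 + 1 from rfl, pow_succ, pow_mul, h2, one_pow, one_mul] at h3
    exact h3
  obtain ⟨h3, h4⟩ := ten V F e10 (by rw [e5]; exact hc) hne
  refine ⟨?_, h4⟩
  rw [e2] at h3
  obtain ⟨t, -, hd, -⟩ := val5 V F y5
  have h5 := hd 1 (by norm_num)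
  have h6 := hd 2 (by norm_num)
  rw [pow_one] at h5
  rw [h5, ← h6]
  exact h3

theorem num5 : Num5 := by
  rintro h1 ⟨τ, hτ⟩ F hF
  obtain ⟨M, V, hM, hV, hch⟩ := Cfsg.Agent.H942.Common.exists_V
  obtain ⟨ht, n, hn, hsum⟩ := ten_y hM hV h1 F hF
  have hFτ : Function.Injective (F.comp τ.toMonoidHom) := hF.comp τ.injective
  obtain ⟨ht', -⟩ := ten_y hM hV h1 (F.comp τ.toMonoidHom) hFτ
  have hτy : bc 3 (adj V (F.comp τ.toMonoidHom)) (word yw) = bc 3 (adj V F) (word (sww yw)) := by
    rw [← hτ yw (by decide +kernel)]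
    rfl
  rw [hτy] at ht'
  -- the group of order 25
  have hab : Commute (word yw) (word yw') := comm_yy'
  set φ := hom2 (word yw) (word yw') y5 y5' hab with hφ
  have hval : ∀ i j : ℕ, ∃ t : ℤ, (t = -2 ∨ t = 3 ∨ t = 23 ∨ t = 248) ∧
      ∀ d : ℕ, ¬ 5 ∣ d → bc 3 (adj V (F.comp φ)) (el i j ^ d) = t := by
    intro i j
    obtain ⟨t, h2, h3, -⟩ := val5 V (F.comp φ) (el_pow5 i j)
    exact ⟨t, h2, h3⟩
  choose t htv htd using hval
  have hdim := Cfsg.Agent.H451.L7.dim M V hM hV _ (F.comp φ) L25 nodup25 (by decide +kernel) mul25 (by decide +kernel)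
  rw [sum25 _ (fun i j => (t i j : ℂ)) htd, bc_one] at hdim
  have hlen : L25.length = 25 := by decide +kernel
  rw [hlen] at hdim
  have hv : ∀ i j : ℕ, (t i j : ℂ) = bc 3 (adj V F) (word yw ^ ((i : ZMod 5)).val * word yw' ^ ((j : ZMod 5)).val) := by
    intro i j
    have h2 := htd i j 1 (by norm_num)
    rw [pow_one, bc_comp, hφ, hom2_el] at h2
    exact h2.symm
  have v10 : (t 1 0 : ℂ) = bc 3 (adj V F) (word yw) := by
    rw [hv]
    have e1 : (((1 : ℕ) : ZMod 5)).val = 1 := by decide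
    have e0 : (((0 : ℕ) : ZMod 5)).val = 0 := by decide
    rw [e1, e0, pow_one, pow_zero, mul_one]
  have v01 : (t 0 1 : ℂ) = bc 3 (adj V F) (word yw) := by
    rw [hv]
    have e1 : (((1 : ℕ) : ZMod 5)).val = 1 := by decide
    have e0 : (((0 : ℕ) : ZMod 5)).val = 0 := by decide
    rw [e1, e0, pow_one, pow_zero, one_mul]
    exact (bc_conj_eq V F conj_y').symm
  have v11 : (t 1 1 : ℂ) = bc 3 (adj V F) (word (sww yw)) := by
    rw [hv]
    have e1 : (((1 : ℕ) : ZMod 5)).val = 1 := by decide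
    rw [e1, pow_one, pow_one]
    exact (bc_conj_eq V F conj_tau).symm
  have v14 : (t 1 4 : ℂ) = bc 3 (adj V F) (word (sww yw)) := by
    rw [hv]
    have e1 : (((1 : ℕ) : ZMod 5)).val = 1 := by decide
    have e4 : (((4 : ℕ) : ZMod 5)).val = 4 := by decide
    rw [e1, e4, pow_one, bc_conj_eq V F conj_4]
    exact (bc_conj_eq V F conj_tau).symm
  have v13 : t 1 3 = t 1 2 := by
    have h2 : (t 1 3 : ℂ) = (t 1 2 : ℂ) := by
      rw [hv, hv]
      have e1 : (((1 : ℕ) : ZMod 5)).val = 1 := by decide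
      have e2 : (((2 : ℕ) : ZMod 5)).val = 2 := by decide
      have e3 : (((3 : ℕ) : ZMod 5)).val = 3 := by decide
      rw [e1, e2, e3, pow_one]
      exact bc_conj_eq V F conj_3
    exact_mod_cast h2
  have w01 : t 0 1 = t 1 0 := by
    have h2 : (t 0 1 : ℂ) = (t 1 0 : ℂ) := by rw [v01, v10]
    exact_mod_cast h2
  have w14 : t 1 4 = t 1 1 := by
    have h2 : (t 1 4 : ℂ) = (t 1 1 : ℂ) := by rw [v14, v11]
    exact_mod_cast h2
  rw [← v10] at ht
  rw [← v11] at ht'
  have ht : t 1 0 = 3 ∨ t 1 0 = 23 := by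
    rcases ht with h | h
    · left; exact_mod_cast h
    · right; exact_mod_cast h
  have ht' : t 1 1 = 3 ∨ t 1 1 = 23 := by
    rcases ht' with h | h
    · left; exact_mod_cast h
    · right; exact_mod_cast h
  have hZ : 248 + 4 * (t 1 0 + t 0 1 + t 1 1 + t 1 4 + t 1 2 + t 1 3) =
      25 * (finrank (ZMod 3) ↥(fixL (F.comp φ) L25) : ℤ) := by
    exact_mod_cast hdim
  rw [v13, w01, w14] at hZ
  have ht23 : t 1 0 = 23 := by
    rcases htv 1 2 with h2 | h2 | h2 | h2 <;> rcases ht with h3 | h3 <;> rcases ht' with h4 | h4 <;>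
      rw [h2, h3, h4] at hZ <;> omega
  have hbc : bc 3 (adj V F) (word yw) = 23 := by
    rw [← v10, ht23]
    norm_num
  -- the fixed space of `y`
  obtain ⟨t0, -, hd0, -⟩ := val5 V F y5
  have ht0 : (t0 : ℂ) = 23 := by
    have := hd0 1 (by norm_num)
    rw [pow_one, hbc] at this
    exact this.symm
  have hsum5 : ∑ i ∈ Finset.range 5, bc 3 (adj V F) (word yw ^ i) = 340 := by
    rw [sum_five V F hd0, ht0]
    norm_num
  constructor
  · exact exists_partner F y5 hsum5
  · exact exists_moved hM hV F y5 e10_yc hsum5 hsum hn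

end Cfsg.Agent.H637.O8N
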